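import Mathlib
import Cfsg.Agent.S0684
import Cfsg.Agent.Lib.Helper12.Fpf
import Cfsg.Agent.Lib.Helper45.Heis64Iso

/-!
# S0686, conditional on the hub (the statement of S0690)

A minimal normal non-abelian subgroup `N ≤ C_H(A)` of a regular linear group `H` is `Q8` or
`SL(2,5)`.
-/

set_option autoImplicit false

namespace Cfsg.Agent.Lib.Helper65.S0686

open Cfsg.Agent.Lib.Helper12

universe u

/-- the hub: the literal statement of S0690 (at universe `u`) -/
def HubZ : Prop :=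
  ∀ (K : Type u) [Group K] [Finite K] (G : Subgroup (MulAut K)),
    (∀ φ ∈ G, φ ≠ 1 → ∀ k : K, φ k = k → k = 1) → commutator G = ⊤ → G ≠ ⊥ →
    Nonempty (G ≃* Matrix.SpecialLinearGroup (Fin 2) (ZMod 5))

/-! ## the perfect case -/

theorem commutator_eq_top_of_equiv {A B : Type*} [Group A] [Group B] (e : A ≃* B)
    (h : commutator A = ⊤) : commutator B = ⊤ := by
  have h1 : (commutator A).map e.toMonoidHom = commutator B := by
    rw [commutator_def, commutator_def, Subgroup.map_commutator,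
      Subgroup.map_top_of_surjective _ e.surjective]
  rw [← h1, h, Subgroup.map_top_of_surjective _ e.surjective]

theorem hubLin (hZ : HubZ.{u}) {p : ℕ} [Fact p.Prime] {V : Type u} [AddCommGroup V]
    [Module (ZMod p) V] [Finite V] (H : Subgroup (V ≃ₗ[ZMod p] V))
    (hsemi : ∀ (h : H) (v : V), v ≠ 0 → (h : V ≃ₗ[ZMod p] V) v = v → h = 1)
    (N : Subgroup H) (hperf : ⁅N, N⁆ = N) (hne : N ≠ ⊥) :
    Nonempty (N ≃* Matrix.SpecialLinearGroup (Fin 2) (ZMod 5)) := by
  classical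
  let φ : N →* MulAut (Multiplicative V) :=
    { toFun := fun n => AddEquiv.toMultiplicative (((n : H) : V ≃ₗ[ZMod p] V).toAddEquiv)
      map_one' := by ext v; rfl
      map_mul' := fun a b => by ext v; rfl }
  have hφ : ∀ (n : N) (v : V), φ n (Multiplicative.ofAdd v) =
      Multiplicative.ofAdd (((n : H) : V ≃ₗ[ZMod p] V) v) := fun n v => rfl
  have hinj : Function.Injective φ := by
    rw [injective_iff_map_eq_one]
    intro n hn
    apply Subtype.ext
    apply Subtype.ext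
    apply LinearEquiv.ext
    intro v
    have h1 := congrArg (fun f : MulAut (Multiplicative V) => f (Multiplicative.ofAdd v)) hn
    exact Multiplicative.ofAdd.injective h1
  let G : Subgroup (MulAut (Multiplicative V)) := φ.range
  let e : N ≃* G := MonoidHom.ofInjective hinj
  have hcomN : commutator N = ⊤ := by
    apply Subgroup.map_injective N.subtype_injective
    rw [Subgroup.map_subtype_commutator, hperf, ← MonoidHom.range_eq_map, Subgroup.range_subtype]
  have hfpf : ∀ ψ ∈ G, ψ ≠ 1 → ∀ k : Multiplicative V, ψ k = k → k = 1 := by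
    rintro ψ ⟨n, rfl⟩ hψ k hk
    by_contra hk1
    apply hψ
    have hv : Multiplicative.toAdd k ≠ 0 := fun h0 => hk1 (Multiplicative.toAdd.injective h0)
    have hfix : ((n : H) : V ≃ₗ[ZMod p] V) (Multiplicative.toAdd k) = Multiplicative.toAdd k :=
      congrArg Multiplicative.toAdd hk
    have hn1 : (n : H) = 1 := hsemi (n : H) _ hv hfix
    have : n = 1 := Subtype.ext hn1
    rw [this, map_one]
  have hGne : G ≠ ⊥ := by
    intro hG
    apply hne
    rw [Subgroup.eq_bot_iff_forall]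
    intro n hn
    have h1 : φ ⟨n, hn⟩ ∈ G := ⟨⟨n, hn⟩, rfl⟩
    rw [hG, Subgroup.mem_bot] at h1
    have h2 : (⟨n, hn⟩ : N) = 1 := hinj (by rw [h1, map_one])
    exact congrArg Subtype.val h2
  obtain ⟨e'⟩ := hZ (Multiplicative V) G hfpf (commutator_eq_top_of_equiv e hcomN) hGne
  exact ⟨e.trans e'⟩

/-! ## the class two case -/

section ClassTwo

variable {G : Type*} [Group G]

/-- normal form `Y^j X^i` -/
def NF (X Y w : G) : Prop := ∃ (j : Fin 2) (i : Fin 4), w = Y ^ (j : ℕ) * X ^ (i : ℕ)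

theorem nf_X {X Y : G} (hX4 : X ^ 4 = 1) (hXY : X * Y = Y * X ^ 3) (w : G) (h : NF X Y w) :
    NF X Y (X * w) := by
  obtain ⟨j, i, rfl⟩ := h
  fin_cases j
  · refine ⟨0, ⟨((i : ℕ) + 1) % 4, Nat.mod_lt _ (by norm_num)⟩, ?_⟩
    simp only [Fin.isValue, Fin.val_zero, pow_zero, one_mul]
    rw [← pow_eq_pow_mod _ hX4, pow_succ']
  · refine ⟨1, ⟨((i : ℕ) + 3) % 4, Nat.mod_lt _ (by norm_num)⟩, ?_⟩
    simp only [Fin.isValue, Fin.val_one, pow_one]
    rw [← pow_eq_pow_mod _ hX4, ← mul_assoc, hXY, mul_assoc, ← pow_add, add_comm]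

theorem nf_Y {X Y : G} (hX4 : X ^ 4 = 1) (hYY : Y * Y = X ^ 2) (w : G) (h : NF X Y w) :
    NF X Y (Y * w) := by
  obtain ⟨j, i, rfl⟩ := h
  fin_cases j
  · refine ⟨1, i, ?_⟩
    simp only [Fin.isValue, pow_zero, one_mul, Fin.val_one, pow_one]
  · refine ⟨0, ⟨((i : ℕ) + 2) % 4, Nat.mod_lt _ (by norm_num)⟩, ?_⟩
    simp only [Fin.isValue, pow_one, Fin.val_zero, pow_zero, one_mul]
    rw [← pow_eq_pow_mod _ hX4, ← mul_assoc, hYY, ← pow_add, add_comm]

theorem q8_of_class_two [Finite G] (hAC : Fpf.AC G) (hUI : Fpf.UI G)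
    (N : Subgroup G) (hNn : N.Normal)
    (hcent : ∀ a ∈ N, ∀ b ∈ N, ∀ n ∈ N, Commute (a * b * a⁻¹ * b⁻¹) n)
    (hNna : ¬ IsMulCommutative N)
    (hNmin : ∀ M : Subgroup G, M.Normal → M ≤ N → ¬ IsMulCommutative M → M = N) :
    Nonempty (N ≃* QuaternionGroup 2) := by
  classical
  have := hNn
  obtain ⟨x, hx, y, hy, hxy⟩ : ∃ x ∈ N, ∃ y ∈ N, x * y ≠ y * x := by
    by_contra hcon
    push Not at hcon
    exact hNna ⟨⟨fun a b => Subtype.ext (hcon a a.2 b b.2)⟩⟩
  obtain ⟨c, hc⟩ : ∃ c, c = x * y * x⁻¹ * y⁻¹ := ⟨_, rfl⟩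
  have hrel : x * y = c * y * x := by rw [hc]; group
  have hc1 : c ≠ 1 := by
    intro h
    apply hxy
    rw [hrel, h, one_mul]
  have hcx : Commute c x := by rw [hc]; exact hcent x hx y hy x hx
  have hcy : Commute c y := by rw [hc]; exact hcent x hx y hy y hy
  obtain ⟨hcc, m, m', hXX, hYY, hXY⟩ := Fpf.exists_quaternion hAC hUI hrel hcx hcy hc1
  obtain ⟨X, hXdef⟩ : ∃ X, X = x ^ m := ⟨_, rfl⟩
  obtain ⟨Y, hYdef⟩ : ∃ Y, Y = y ^ m' := ⟨_, rfl⟩
  rw [← hXdef] at hXX hXY
  rw [← hYdef] at hYY hXY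
  have hXN : X ∈ N := hXdef ▸ N.pow_mem hx m
  have hYN : Y ∈ N := hYdef ▸ N.pow_mem hy m'
  have hzc : ∀ g : G, Commute c g := Fpf.central_of_UI hUI hc1 hcc
  -- the generating set
  let S : Set G := {t | t ∈ N ∧ t * t = c}
  have hXS : X ∈ S := ⟨hXN, hXX⟩
  have hYS : Y ∈ S := ⟨hYN, hYY⟩
  have hMN : Subgroup.normalClosure S ≤ N := Subgroup.normalClosure_le_normal (fun t ht => ht.1)
  have hMna : ¬ IsMulCommutative (Subgroup.normalClosure S) := by
    intro hcom
    apply hc1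
    have h1 : (⟨X, Subgroup.subset_normalClosure hXS⟩ : Subgroup.normalClosure S) *
        ⟨Y, Subgroup.subset_normalClosure hYS⟩ = ⟨Y, Subgroup.subset_normalClosure hYS⟩ *
        ⟨X, Subgroup.subset_normalClosure hXS⟩ := hcom.is_comm.comm _ _
    have h2 : X * Y = Y * X := congrArg Subtype.val h1
    exact Fpf.eq_one_of_commute hXY h2
  have hMeq : Subgroup.normalClosure S = N := hNmin _ inferInstance hMN hMna
  -- pairs
  have hpair : ∀ s ∈ S, ∀ t ∈ S, s * t = t * s ∨ s * t = c * t * s := by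
    intro s hs t ht
    obtain ⟨d, hd⟩ : ∃ d, d = s * t * s⁻¹ * t⁻¹ := ⟨_, rfl⟩
    have hr : s * t = d * t * s := by rw [hd]; group
    by_cases hd1 : d = 1
    · left
      rw [hr, hd1, one_mul]
    · right
      have hds : Commute d s := by rw [hd]; exact hcent s hs.1 t ht.1 s hs.1
      have hdt : Commute d t := by rw [hd]; exact hcent s hs.1 t ht.1 t ht.1
      have hdd := Fpf.comm_sq_eq_one hAC hUI hr hds hdt hd1
      have : d = c := hUI d c hdd hd1 hcc hc1
      rw [hr, this]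
  have hXYsq : (X * Y) * (X * Y) = c := by
    calc (X * Y) * (X * Y) = (c * Y * X) * (X * Y) := by rw [← hXY]
      _ = c * Y * (X * X) * Y := by group
      _ = c * Y * c * Y := by rw [hXX]
      _ = c * (Y * c) * Y := by group
      _ = c * (c * Y) * Y := by rw [(hzc Y).eq]
      _ = (c * c) * (Y * Y) := by group
      _ = c := by rw [hcc, hYY, one_mul]
  have hsix : ∀ t ∈ S, t = X ∨ t = c * X ∨ t = Y ∨ t = c * Y ∨ t = X * Y ∨ t = c * (X * Y) := by
    intro t ht
    rcases hpair t ht X hXS with h | h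
    · rcases Fpf.eq_or_eq_mul_of_comm hUI hc1 hcc ht.2 hXX h with h1 | h1
      · exact Or.inl h1
      · exact Or.inr (Or.inl h1)
    · rcases hpair t ht Y hYS with h' | h'
      · rcases Fpf.eq_or_eq_mul_of_comm hUI hc1 hcc ht.2 hYY h' with h1 | h1
        · exact Or.inr (Or.inr (Or.inl h1))
        · exact Or.inr (Or.inr (Or.inr (Or.inl h1)))
      · have hcomm : Commute t (X * Y) := by
          show t * (X * Y) = X * Y * t
          calc t * (X * Y) = (t * X) * Y := by group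
            _ = (c * X * t) * Y := by rw [h]
            _ = c * X * (t * Y) := by group
            _ = c * X * (c * Y * t) := by rw [h']
            _ = c * (X * c) * Y * t := by group
            _ = c * (c * X) * Y * t := by rw [(hzc X).eq]
            _ = (c * c) * X * Y * t := by group
            _ = X * Y * t := by rw [hcc, one_mul]
        rcases Fpf.eq_or_eq_mul_of_comm hUI hc1 hcc ht.2 hXYsq hcomm with h1 | h1
        · exact Or.inr (Or.inr (Or.inr (Or.inr (Or.inl h1))))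
        · exact Or.inr (Or.inr (Or.inr (Or.inr (Or.inr h1))))
  -- relations in normal form
  have hX4 : X ^ 4 = 1 := by
    calc X ^ 4 = (X * X) * (X * X) := by simp only [pow_succ, pow_zero, one_mul, mul_assoc]
      _ = 1 := by rw [hXX, hcc]
  have hYY2 : Y * Y = X ^ 2 := by rw [hYY, pow_two, hXX]
  have hXY3 : X * Y = Y * X ^ 3 := by
    calc X * Y = c * Y * X := hXY
      _ = Y * c * X := by rw [(hzc Y).eq]
      _ = Y * (X * X) * X := by rw [hXX]
      _ = Y * X ^ 3 := by simp only [pow_succ, pow_zero, one_mul, mul_assoc]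
  have pX := nf_X hX4 hXY3
  have pY := nf_Y hX4 hYY2
  have pS : ∀ t ∈ S, ∀ w, NF X Y w → NF X Y (t * w) := by
    intro t ht w hw
    rcases hsix t ht with h | h | h | h | h | h
    · rw [h]; exact pX _ hw
    · have e : t * w = X * (X * (X * w)) := by rw [h, ← hXX]; group
      rw [e]; exact pX _ (pX _ (pX _ hw))
    · rw [h]; exact pY _ hw
    · have e : t * w = Y * (Y * (Y * w)) := by rw [h, ← hYY]; group
      rw [e]; exact pY _ (pY _ (pY _ hw))
    · have e : t * w = X * (Y * w) := by rw [h]; group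
      rw [e]; exact pX _ (pY _ hw)
    · have e : t * w = X * (X * (X * (Y * w))) := by rw [h, ← hXX]; group
      rw [e]; exact pX _ (pX _ (pX _ (pY _ hw)))
  have hSinv : ∀ t ∈ S, t⁻¹ ∈ S := by
    intro t ht
    refine ⟨N.inv_mem ht.1, ?_⟩
    have h1 : t⁻¹ = c * t := by
      apply inv_eq_of_mul_eq_one_right
      calc t * (c * t) = (t * c) * t := by group
        _ = (c * t) * t := by rw [(hzc t).eq]
        _ = c * (t * t) := by group
        _ = 1 := by rw [ht.2, hcc]
    calc t⁻¹ * t⁻¹ = (c * t) * (c * t) := by rw [h1]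
      _ = c * (t * c) * t := by group
      _ = c * (c * t) * t := by rw [(hzc t).eq]
      _ = (c * c) * (t * t) := by group
      _ = c := by rw [hcc, one_mul, ht.2]
  let K' : Subgroup G :=
    { carrier := {w | (∀ v, NF X Y v → NF X Y (w * v)) ∧ (∀ v, NF X Y v → NF X Y (w⁻¹ * v))}
      mul_mem' := by
        rintro a b ⟨ha1, ha2⟩ ⟨hb1, hb2⟩
        refine ⟨fun v hv => ?_, fun v hv => ?_⟩
        · rw [mul_assoc]; exact ha1 _ (hb1 v hv)
        · rw [mul_inv_rev, mul_assoc]; exact hb2 _ (ha2 v hv)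
      one_mem' := ⟨fun v hv => by rwa [one_mul], fun v hv => by rwa [inv_one, one_mul]⟩
      inv_mem' := by
        rintro a ⟨ha1, ha2⟩
        exact ⟨ha2, fun v hv => by rw [inv_inv]; exact ha1 v hv⟩ }
  have hconjS : Group.conjugatesOfSet S ⊆ S := by
    intro g hg
    rw [Group.mem_conjugatesOfSet_iff] at hg
    obtain ⟨s, hs, hsg⟩ := hg
    rw [isConj_iff] at hsg
    obtain ⟨k, rfl⟩ := hsg
    refine ⟨hNn.conj_mem s hs.1 k, ?_⟩
    calc (k * s * k⁻¹) * (k * s * k⁻¹) = k * (s * s) * k⁻¹ := by group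
      _ = k * c * k⁻¹ := by rw [hs.2]
      _ = c * k * k⁻¹ := by rw [(hzc k).eq]
      _ = c := by group
  have hNK : N ≤ K' := by
    rw [← hMeq]
    show Subgroup.closure (Group.conjugatesOfSet S) ≤ K'
    rw [Subgroup.closure_le]
    intro g hg
    have hgS := hconjS hg
    exact ⟨pS g hgS, pS g⁻¹ (hSinv g hgS)⟩
  have hNF : ∀ n ∈ N, NF X Y n := by
    intro n hn
    have h1 := (hNK hn).1 1 ⟨0, 0, by simp⟩
    rwa [mul_one] at h1
  -- counting
  have hle : Nat.card N ≤ 8 := by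
    let g : Fin 2 × Fin 4 → N := fun ji =>
      ⟨Y ^ (ji.1 : ℕ) * X ^ (ji.2 : ℕ), N.mul_mem (N.pow_mem hYN _) (N.pow_mem hXN _)⟩
    have hg : Function.Surjective g := by
      intro n
      obtain ⟨j, i, hji⟩ := hNF n n.2
      exact ⟨(j, i), Subtype.ext hji.symm⟩
    have h1 := Nat.card_le_card_of_surjective g hg
    simpa using h1
  have h4 : 4 ∣ Nat.card N := by
    have h1 : orderOf (⟨X, hXN⟩ : N) = 4 := by
      rw [Subgroup.orderOf_mk]
      exact Fpf.orderOf_eq_four hc1 hcc hXX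
    rw [← h1]
    exact orderOf_dvd_natCard _
  have hne4 : Nat.card N ≠ 4 := by
    intro h
    have : Fact (Nat.Prime 2) := ⟨Nat.prime_two⟩
    have h2 : Nat.card N = 2 ^ 2 := by rw [h]; norm_num
    exact hNna (IsPGroup.isMulCommutative_of_card_eq_prime_sq h2)
  have hpos : 0 < Nat.card N := Nat.card_pos
  have h8 : Nat.card N = 8 := by
    obtain ⟨k, hk⟩ := h4
    omega
  refine Cfsg.Agent.Lib.Helper45.Heis64.q8_of h8 ⟨X, hXN⟩ ⟨Y, hYN⟩ ⟨c, hXX ▸ N.mul_mem hXN hXN⟩
    ?_ ?_ ?_ ?_ ?_ ?_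
  · intro g
    exact Subtype.ext (hzc g).eq.symm
  · exact Subtype.ext hcc
  · intro h
    exact hc1 (congrArg Subtype.val h)
  · apply Subtype.ext
    show X * Y = Y * X * c
    rw [hXY, mul_assoc, (hzc (Y * X)).eq, mul_assoc]
  · exact Subtype.ext hXX
  · exact Subtype.ext hYY

end ClassTwo

/-! ## the statement -/

theorem core (hZ : HubZ.{u}) {p : ℕ} [Fact p.Prime] {V : Type u} [AddCommGroup V]
    [Module (ZMod p) V] [Finite V] (H : Subgroup (V ≃ₗ[ZMod p] V))
    (hreg : ∀ v w : V, v ≠ 0 → w ≠ 0 → ∃! h : H, (h : V ≃ₗ[ZMod p] V) v = w)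
    (hI : ∀ A : Subgroup H, A.Normal → IsCyclic A → ∃ W : Submodule (ZMod p) V, W ≠ ⊥ ∧ W ≠ ⊤ ∧
      ∀ a ∈ A, ∀ v ∈ W, ((a : H) : V ≃ₗ[ZMod p] V) v ∈ W)
    (A : Subgroup H) (hAn : A.Normal) (hAc : IsMulCommutative A)
    (hAmax : ∀ B : Subgroup H, B.Normal → IsMulCommutative B → A ≤ B → B = A)
    (N : Subgroup H) (hNn : N.Normal) (hNle : N ≤ Subgroup.centralizer (A : Set H))
    (hNna : ¬ IsMulCommutative N)
    (hNmin : ∀ M : Subgroup H, M.Normal → M ≤ N → ¬ IsMulCommutative M → M = N) :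
    Nonempty (N ≃* QuaternionGroup 2) ∨
      Nonempty (N ≃* Matrix.SpecialLinearGroup (Fin 2) (ZMod 5)) := by
  classical
  have hfinL := S0684.finite_linEquiv (p := p) (V := V)
  have hnt : Nontrivial V := by
    obtain ⟨W, hW, -, -⟩ := hI ⊥ inferInstance inferInstance
    obtain ⟨v, -, hv⟩ := (Submodule.ne_bot_iff _).mp hW
    exact ⟨⟨v, 0, hv⟩⟩
  have hsemi : ∀ (h : H) (v : V), v ≠ 0 → (h : V ≃ₗ[ZMod p] V) v = v → h = 1 :=
    S0684.semireg H hreg
  have hAC : Fpf.AC H := fun A hA => S0684.cyclic_of_semireg H A hA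
    (fun a v hv hfix => Subtype.ext (hsemi a v hv hfix))
  have hneg : ∀ h : H, h * h = 1 → h ≠ 1 → ∀ v, (h : V ≃ₗ[ZMod p] V) v = -v := by
    intro h hh hne v
    by_contra hcon
    apply hne
    apply hsemi h (v + (h : V ≃ₗ[ZMod p] V) v)
    · intro h0
      apply hcon
      exact eq_neg_of_add_eq_zero_right h0
    · rw [map_add]
      have h1 : (h : V ≃ₗ[ZMod p] V) ((h : V ≃ₗ[ZMod p] V) v) = v :=
        congrArg (fun g : H => (g : V ≃ₗ[ZMod p] V) v) hh
      rw [h1, add_comm]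
  have hUI : Fpf.UI H := by
    intro a b ha ha1 hb hb1
    apply Subtype.ext
    apply LinearEquiv.ext
    intro v
    rw [hneg a ha ha1 v, hneg b hb hb1 v]
  have := hNn
  have := hAn
  have hBn : (⁅N, N⁆ : Subgroup H).Normal := inferInstance
  have hBle : ⁅N, N⁆ ≤ N := Subgroup.commutator_le_left N N
  by_cases hBc : IsMulCommutative (⁅N, N⁆ : Subgroup H)
  · left
    have hABc : IsMulCommutative (A ⊔ ⁅N, N⁆ : Subgroup H) := by
      rw [← Subgroup.le_centralizer_iff_isMulCommutative]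
      have hA1 : A ≤ Subgroup.centralizer (A : Set H) :=
        Subgroup.le_centralizer_iff_isMulCommutative.mpr hAc
      have hB1 : ⁅N, N⁆ ≤ Subgroup.centralizer ((⁅N, N⁆ : Subgroup H) : Set H) :=
        Subgroup.le_centralizer_iff_isMulCommutative.mpr hBc
      have hB2 : ⁅N, N⁆ ≤ Subgroup.centralizer (A : Set H) := hBle.trans hNle
      have hA2 : A ≤ Subgroup.centralizer ((⁅N, N⁆ : Subgroup H) : Set H) :=
        Subgroup.le_centralizer_iff.mp hB2
      apply sup_le
      · exact Subgroup.le_centralizer_iff.mp (sup_le hA1 hB2)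
      · exact Subgroup.le_centralizer_iff.mp (sup_le hA2 hB1)
    have hBA : ⁅N, N⁆ ≤ A := by
      have h1 : A ⊔ ⁅N, N⁆ = A := hAmax (A ⊔ ⁅N, N⁆) inferInstance hABc le_sup_left
      rw [← h1]
      exact le_sup_right
    apply q8_of_class_two hAC hUI N hNn ?_ hNna hNmin
    intro a ha b hb n hn
    have hmemB : a * b * a⁻¹ * b⁻¹ ∈ ⁅N, N⁆ := by
      have h1 := Subgroup.commutator_mem_commutator ha hb
      rwa [commutatorElement_def] at h1
    have h2 := hNle hn
    rw [Subgroup.mem_centralizer_iff] at h2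
    exact h2 _ (hBA hmemB)
  · right
    have hperf : ⁅N, N⁆ = N := hNmin _ hBn hBle hBc
    refine hubLin hZ H hsemi N hperf ?_
    rintro rfl
    exact hNna inferInstance

end Cfsg.Agent.Lib.Helper65.S0686
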